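/-
Orbit data.
-/
import Cfsg.Agent.Lib.Leech.Orb.Data

set_option autoImplicit false
set_option maxRecDepth 100000
set_option maxHeartbeats 0

namespace CfsgLib.Leech.Orb

open Cfsg CfsgLib.Golay
open scoped Pointwise

def BR4 : ℕ := 5663681320261745559755103053371012445963540
def condsR4 : List (ℕ × List (ℕ × ℤ) × ℤ) := [(U0, spU0, 24)]
def extraR4 : List (ℕ × List (ℕ × ℤ) × ℤ) := [(U0, spU0, 24)]
def ccR4 : List (List (ℕ × ℕ) × List (ℕ × ℕ) × ℕ × ℕ) := [([(0, 4), (1, 2), (3, 2), (4, 2), (5, 2), (8, 2), (11, 2), (13, 2)], [(2, 2)], 0, 280)]
def progR4 : List ℕ := [1470038760590317333455686971449324742709967135142470882077906705267308896273, 938197948615641597641505489559137038568567257091176132504189907040086589520, 2265222175221404965709991473345242269795718137082484238772706356971381458179, 36193889783022947108282802545479110678644008246454876759729908552027868234016, 32355521706474848508161292274775413555753519699488937548311055928146268928, 29033065634555500219001010104202181961805027477795460626465293471033172762645, 7721121673503740013893394564481349268568856160427160271219532495291834974976, 21711570731973763628352596317301948248174342024763392431935551935448949588016, 23973133654135862711063509984692104735164680890141923305554826997167282061329,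 29032975905460573311773821142728497438950307382122641268391251308329698328656, 16736044721704188258112509858374021869126130343749412344981469219803062419456, 58858101279052663023791141691554917620822488392394957681985277684436959312, 143666887176289129884528627494285206342958245311806084857461424041559601186, 28948160351312037165842562246037532511926021755144503657180896164341432188979, 113409957661195227478147634128329229423837960230405182674470054126716715553, 58526943841913703472936039349543416667991871531040508136509398313368485954, 36189003427778149689408774207051778798754240383664416312845074472985064113154, 1125981511221251]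
def runR4 : List ℕ := runChunks compG3 progR4 [BR4] [BR4]

theorem chkBR4 : chkP 32 BR4 = true := by decide +kernel
theorem condR4 : condsR4.all (condChk vsG3 BR4) = true := by decide +kernel
theorem scanR4 : scanChk 18 hiP 552 runR4 = true := by decide +kernel
theorem hccR4 : compC extraR4 = ccR4 := by decide +kernel
theorem cntR4 : cntChk (predD ccR4) 18 L32 552 = true := by decide +kernel

theorem resR4 : OrbRes vsG3 BR4 condsR4 552 runR4 :=
  orbit_S32 okG3 eqG3 chkBR4 condR4 scanR4 listOf_L32 (parent := []) (extra := extraR4) rfl hccR4 cntR4

theorem orbR4 : {x : GolayPt → ℤ | x ∈ leechLattice ∧ sqNorm x = 32 ∧ PrC condsR4 x}.ncard = 552 ∧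
    ∀ x : GolayPt → ℤ, x ∈ leechLattice → sqNorm x = 32 → PrC condsR4 x →
      ∃ g : ↥Co0, FixL (bsOf vsG3) g ∧ ((g • liftP BR4 : leechLattice) : GolayPt → ℤ) = x :=
  ⟨resR4.1, resR4.2.1⟩

end CfsgLib.Leech.Orb
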