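/-
Orbit data.
-/
import Cfsg.Agent.Lib.Leech.Orb.R4

set_option autoImplicit false
set_option maxRecDepth 100000
set_option maxHeartbeats 0

namespace CfsgLib.Leech.Orb

open Cfsg CfsgLib.Golay
open scoped Pointwise

def BR9 : ℕ := 5663681320910782667071956507508935242605586
def condsR9 : List (ℕ × List (ℕ × ℤ) × ℤ) := [(U0, spU0, 24), (WH0, spWH0, -24)]
def extraR9 : List (ℕ × List (ℕ × ℤ) × ℤ) := [(WH0, spWH0, -24)]
def ccR9 : List (List (ℕ × ℕ) × List (ℕ × ℕ) × ℕ × ℕ) := [([(2, 2), (6, 4)], [(1, 2), (3, 2), (4, 2), (5, 2), (8, 2), (11, 2), (13, 2)], 152, 0)]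
def progR9 : List ℕ := [21744588150635039530378150552233780108932573204793712557036400527186545606929, 1894087665798844996128884834878274278013190262234557075781354872353098576896, 113299096989794122868209607817913337139328804299257623734741943843748328000, 16420]
def runR9 : List ℕ := runChunks compGH progR9 [BR9] [BR9]

theorem chkBR9 : chkP 32 BR9 = true := by decide +kernel
theorem condR9 : condsR9.all (condChk vsGH BR9) = true := by decide +kernel
theorem scanR9 : scanChk 18 hiP 100 runR9 = true := by decide +kernel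
theorem hccR9 : compC extraR9 = ccR9 := by decide +kernel
theorem cntR9 : cntChk (predD ccR9) 18 runR4 100 = true := by decide +kernel

theorem resR9 : OrbRes vsGH BR9 condsR9 100 runR9 :=
  orbit_S32 okGH eqGH chkBR9 condR9 scanR9 resR4.2.2 (parent := condsR4) (extra := extraR9) rfl hccR9 cntR9

theorem orbR9 : {x : GolayPt → ℤ | x ∈ leechLattice ∧ sqNorm x = 32 ∧ PrC condsR9 x}.ncard = 100 ∧
    ∀ x : GolayPt → ℤ, x ∈ leechLattice → sqNorm x = 32 → PrC condsR9 x →
      ∃ g : ↥Co0, FixL (bsOf vsGH) g ∧ ((g • liftP BR9 : leechLattice) : GolayPt → ℤ) = x :=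
  ⟨resR9.1, resR9.2.1⟩

end CfsgLib.Leech.Orb
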