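/-
Orbit data.
-/
import Cfsg.Agent.Lib.Leech.Orb.R9

set_option autoImplicit false
set_option maxRecDepth 100000
set_option maxHeartbeats 0

namespace CfsgLib.Leech.Orb

open Cfsg CfsgLib.Golay
open scoped Pointwise

def BR10 : ℕ := 5663681320261745560359713537693868844721296
def condsR10 : List (ℕ × List (ℕ × ℤ) × ℤ) := [(U0, spU0, 24), (WH0, spWH0, -24), (X1, spX1, 8)]
def extraR10 : List (ℕ × List (ℕ × ℤ) × ℤ) := [(X1, spX1, 8)]
def ccR10 : List (List (ℕ × ℕ) × List (ℕ × ℕ) × ℕ × ℕ) := [([(0, 2), (3, 2), (5, 2), (7, 2), (8, 2), (18, 2)], [(2, 2), (6, 2)], 0, 136)]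
def progR10 : List ℕ := [11445857476220982835966155556414342525889019970]
def runR10 : List ℕ := runChunks compGM22 progR10 [BR10] [BR10]

theorem chkBR10 : chkP 32 BR10 = true := by decide +kernel
theorem condR10 : condsR10.all (condChk vsGM22 BR10) = true := by decide +kernel
theorem scanR10 : scanChk 18 hiP 22 runR10 = true := by decide +kernel
theorem hccR10 : compC extraR10 = ccR10 := by decide +kernel
theorem cntR10 : cntChk (predD ccR10) 18 runR9 22 = true := by decide +kernel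

theorem resR10 : OrbRes vsGM22 BR10 condsR10 22 runR10 :=
  orbit_S32 okGM22 eqGM22 chkBR10 condR10 scanR10 resR9.2.2 (parent := condsR9) (extra := extraR10) rfl hccR10 cntR10

theorem orbR10 : {x : GolayPt → ℤ | x ∈ leechLattice ∧ sqNorm x = 32 ∧ PrC condsR10 x}.ncard = 22 ∧
    ∀ x : GolayPt → ℤ, x ∈ leechLattice → sqNorm x = 32 → PrC condsR10 x →
      ∃ g : ↥Co0, FixL (bsOf vsGM22) g ∧ ((g • liftP BR10 : leechLattice) : GolayPt → ℤ) = x :=
  ⟨resR10.1, resR10.2.1⟩

end CfsgLib.Leech.Orb
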