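/-
Orbit data.
-/
import Cfsg.Agent.Lib.Leech.Orb.R9

set_option autoImplicit false
set_option maxRecDepth 100000
set_option maxHeartbeats 0

namespace CfsgLib.Leech.Orb

open Cfsg CfsgLib.Golay
open scoped Pointwise

def BR11 : ℕ := 5663681319612708452438249600358718974256146
def condsR11 : List (ℕ × List (ℕ × ℤ) × ℤ) := [(U0, spU0, 24), (WH0, spWH0, -24), (X1, spX1, 16)]
def extraR11 : List (ℕ × List (ℕ × ℤ) × ℤ) := [(X1, spX1, 16)]
def ccR11 : List (List (ℕ × ℕ) × List (ℕ × ℕ) × ℕ × ℕ) := [([(0, 2), (3, 2), (5, 2), (7, 2), (8, 2), (18, 2)], [(2, 2), (6, 2)], 0, 144)]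
def progR11 : List ℕ := [1809706916333639441021291526900064374364619473973961784265025123894492799269, 939963557311948316892261718694183287818099674737649989739240170775132513280, 18930971143028378435648]
def runR11 : List ℕ := runChunks compGM22 progR11 [BR11] [BR11]

theorem chkBR11 : chkP 32 BR11 = true := by decide +kernel
theorem condR11 : condsR11.all (condChk vsGM22 BR11) = true := by decide +kernel
theorem scanR11 : scanChk 18 hiP 77 runR11 = true := by decide +kernel
theorem hccR11 : compC extraR11 = ccR11 := by decide +kernel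
theorem cntR11 : cntChk (predD ccR11) 18 runR9 77 = true := by decide +kernel

theorem resR11 : OrbRes vsGM22 BR11 condsR11 77 runR11 :=
  orbit_S32 okGM22 eqGM22 chkBR11 condR11 scanR11 resR9.2.2 (parent := condsR9) (extra := extraR11) rfl hccR11 cntR11

theorem orbR11 : {x : GolayPt → ℤ | x ∈ leechLattice ∧ sqNorm x = 32 ∧ PrC condsR11 x}.ncard = 77 ∧
    ∀ x : GolayPt → ℤ, x ∈ leechLattice → sqNorm x = 32 → PrC condsR11 x →
      ∃ g : ↥Co0, FixL (bsOf vsGM22) g ∧ ((g • liftP BR11 : leechLattice) : GolayPt → ℤ) = x :=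
  ⟨resR11.1, resR11.2.1⟩

end CfsgLib.Leech.Orb
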