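/-
Orbit data.
-/
import Cfsg.Agent.Lib.Leech.Orb.R12

set_option autoImplicit false
set_option maxRecDepth 100000
set_option maxHeartbeats 0

namespace CfsgLib.Leech.Orb

open Cfsg CfsgLib.Golay
open scoped Pointwise

def BR13 : ℕ := 5663681320261745559755103053371016808039440
def condsR13 : List (ℕ × List (ℕ × ℤ) × ℤ) := [(V0, spV0, 0), (W0, spW0, 16), (X20, spX20, 0)]
def extraR13 : List (ℕ × List (ℕ × ℤ) × ℤ) := [(X20, spX20, 0)]
def ccR13 : List (List (ℕ × ℕ) × List (ℕ × ℕ) × ℕ × ℕ) := [([(3, 4)], [(2, 4)], 0, 0)]
def progR13 : List ℕ := [14481085956909080703943729762585669360562448927756804504915421777517948715284, 7745857586039974115055395829976266804548261693128034237297248569687424386096, 29032844802268141123886627877745738729164851793731550655239522944366797725700, 565399259922863146778864237382292846801811599481384680689587132861184672257, 15379086004542560860810789907828573021464807348394402805523845208242439459152, 8594387182871944924439098954965976779722974670042245171103461956943199077120, 29032844802682300494008257592322713641252489621833604343034790293414915350532, 16339803385576884638047908798358014399774685064067575111715439872549130944512,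 118380532703676599589211016532205054950202383798234776132831405380774936624, 8254711324976007111788659541597138881008069431776986955862403341734980362260, 206696612608]
def runR13 : List ℕ := runChunks compGMX progR13 [BR13] [BR13]

theorem chkBR13 : chkP 32 BR13 = true := by decide +kernel
theorem condR13 : condsR13.all (condChk vsGMX BR13) = true := by decide +kernel
theorem scanR13 : scanChk 18 hiP 330 runR13 = true := by decide +kernel
theorem hccR13 : compC extraR13 = ccR13 := by decide +kernel
theorem cntR13 : cntChk (predD ccR13) 18 runR12 330 = true := by decide +kernel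

theorem resR13 : OrbRes vsGMX BR13 condsR13 330 runR13 :=
  orbit_S32 okGMX eqGMX chkBR13 condR13 scanR13 resR12.2.2 (parent := condsR12) (extra := extraR13) rfl hccR13 cntR13

theorem orbR13 : {x : GolayPt → ℤ | x ∈ leechLattice ∧ sqNorm x = 32 ∧ PrC condsR13 x}.ncard = 330 ∧
    ∀ x : GolayPt → ℤ, x ∈ leechLattice → sqNorm x = 32 → PrC condsR13 x →
      ∃ g : ↥Co0, FixL (bsOf vsGMX) g ∧ ((g • liftP BR13 : leechLattice) : GolayPt → ℤ) = x :=
  ⟨resR13.1, resR13.2.1⟩

end CfsgLib.Leech.Orb
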