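/-
Orbit data.
-/
import Cfsg.Agent.Lib.Leech.Orb.R12

set_option autoImplicit false
set_option maxRecDepth 100000
set_option maxHeartbeats 0

namespace CfsgLib.Leech.Orb

open Cfsg CfsgLib.Golay
open scoped Pointwise

def BR15 : ℕ := 5663681320261745559755103053371012513055760
def condsR15 : List (ℕ × List (ℕ × ℤ) × ℤ) := [(V0, spV0, 0), (W0, spW0, 16), (X20, spX20, 16)]
def extraR15 : List (ℕ × List (ℕ × ℤ) × ℤ) := [(X20, spX20, 16)]
def ccR15 : List (List (ℕ × ℕ) × List (ℕ × ℕ) × ℕ × ℕ) := [([(3, 4)], [(2, 4)], 0, 16)]
def progR15 : List ℕ := [29911098896308299567349362457290947648759850637579541139551880433320518156338, 7802398366876152779988060605147065159843352480499994853511928680002525331460, 14509349039578000445560429177040164494824075696431036468117668141228789727296, 113410359117101298494638000975011174999167384019866506909801387068621062144, 8142074283825962782992161664883820481630710378308344517269405493877698396434, 21714771821235939575123943773495709625272958494840484673995242924441715606272, 35351607534528602467146273445847806962161037951241378761276917213915250752, 961192416979213371299935631328790622586177426069066815413107503888975659312, 30757289313472909120622578057330575441698866212151342907178393474216379891716,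 7069172670686538931524310443821433698516799781255874196794212643356278788, 21711375703805136294263351291937186307107624996122486364462052076560741171474, 30842103122048887318634607302438468997093556156141804541738468652879433630016, 28955311038751950033186223795466388681390596930998229776433816172176064200704, 938195798454171242277600366449320878511523733568241262390548701247317475332, 302251342869997721486339]
def runR15 : List ℕ := runChunks compGMX progR15 [BR15] [BR15]

theorem chkBR15 : chkP 32 BR15 = true := by decide +kernel
theorem condR15 : condsR15.all (condChk vsGMX BR15) = true := by decide +kernel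
theorem scanR15 : scanChk 18 hiP 462 runR15 = true := by decide +kernel
theorem hccR15 : compC extraR15 = ccR15 := by decide +kernel
theorem cntR15 : cntChk (predD ccR15) 18 runR12 462 = true := by decide +kernel

theorem resR15 : OrbRes vsGMX BR15 condsR15 462 runR15 :=
  orbit_S32 okGMX eqGMX chkBR15 condR15 scanR15 resR12.2.2 (parent := condsR12) (extra := extraR15) rfl hccR15 cntR15

theorem orbR15 : {x : GolayPt → ℤ | x ∈ leechLattice ∧ sqNorm x = 32 ∧ PrC condsR15 x}.ncard = 462 ∧
    ∀ x : GolayPt → ℤ, x ∈ leechLattice → sqNorm x = 32 → PrC condsR15 x →
      ∃ g : ↥Co0, FixL (bsOf vsGMX) g ∧ ((g • liftP BR15 : leechLattice) : GolayPt → ℤ) = x :=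
  ⟨resR15.1, resR15.2.1⟩

end CfsgLib.Leech.Orb
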