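/-
Orbit data.
-/
import Cfsg.Agent.Lib.Leech.Orb.R8

set_option autoImplicit false
set_option maxRecDepth 100000
set_option maxHeartbeats 0

namespace CfsgLib.Leech.Orb

open Cfsg CfsgLib.Golay
open scoped Pointwise

def BR16 : ℕ := 5663681361800120428033724117089763643163536
def condsR16 : List (ℕ × List (ℕ × ℤ) × ℤ) := [(U0, spU0, -16), (MT0, spMT0, -8)]
def extraR16 : List (ℕ × List (ℕ × ℤ) × ℤ) := [(MT0, spMT0, -8)]
def ccR16 : List (List (ℕ × ℕ) × List (ℕ × ℕ) × ℕ × ℕ) := [([], [(0, 4), (6, 4)], 136, 0)]
def progR16 : List ℕ := [8594387129136783398782195101415730067690829736658540227763743086180868161809, 15011134391171961120048419330354557592152606621078696784095730881136513130499, 5309168818270491250283910578814126271365678797198482113338784090162331696, 28948160350997261705279374447658096994596328475812543162454925090056659206435, 14481209681166622159487124945756292676836207930812703742191363454990416949265, 7802396671761767061427013777462576061460498598931871035847592277054152774656, 15039429826064979421559577307198692542058197181364027781112836960704809418784, 28953654242504216322890339958163158207980760459084677431810761121290566763264,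 29032844800694524949039917765339929333669592277113555749631734637927168214017, 21741191167044758910136023755374691778733925109467234304717418559733892129280, 512265391990085616418054720038992943020207936672777271120160558809092]
def runR16 : List ℕ := runChunks compGH progR16 [BR16] [BR16]

theorem chkBR16 : chkP 32 BR16 = true := by decide +kernel
theorem condR16 : condsR16.all (condChk vsGH BR16) = true := by decide +kernel
theorem scanR16 : scanChk 18 hiP 352 runR16 = true := by decide +kernel
theorem hccR16 : compC extraR16 = ccR16 := by decide +kernel
theorem cntR16 : cntChk (predD ccR16) 18 runR8 352 = true := by decide +kernel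

theorem resR16 : OrbRes vsGH BR16 condsR16 352 runR16 :=
  orbit_S32 okGH eqGH chkBR16 condR16 scanR16 resR8.2.2 (parent := condsR8) (extra := extraR16) rfl hccR16 cntR16

theorem orbR16 : {x : GolayPt → ℤ | x ∈ leechLattice ∧ sqNorm x = 32 ∧ PrC condsR16 x}.ncard = 352 ∧
    ∀ x : GolayPt → ℤ, x ∈ leechLattice → sqNorm x = 32 → PrC condsR16 x →
      ∃ g : ↥Co0, FixL (bsOf vsGH) g ∧ ((g • liftP BR16 : leechLattice) : GolayPt → ℤ) = x :=
  ⟨resR16.1, resR16.2.1⟩

end CfsgLib.Leech.Orb
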