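/-
Orbit data.
-/
import Cfsg.Agent.Lib.Leech.Orb.R4

set_option autoImplicit false
set_option maxRecDepth 100000
set_option maxHeartbeats 0

namespace CfsgLib.Leech.Orb

open Cfsg CfsgLib.Golay
open scoped Pointwise

def BR5 : ℕ := 5663681320261745559755103053371012445946900
def condsR5 : List (ℕ × List (ℕ × ℤ) × ℤ) := [(U0, spU0, 24), (V0, spV0, 16)]
def extraR5 : List (ℕ × List (ℕ × ℤ) × ℤ) := [(V0, spV0, 16)]
def ccR5 : List (List (ℕ × ℕ) × List (ℕ × ℕ) × ℕ × ℕ) := [([(0, 4), (1, 4)], [], 0, 144)]
def progR5 : List ℕ := [15011146470918463705523098793145638273087609584069652524275284883763072466961, 9046278974667741592170308957205541921397767425254241800418180686353509921280, 1023005315022691605701492571967285130309345863151833366917212179526442811456, 88344083843624353801750968403600109120826648431425669314064195463770537988, 21718104830761017945533943223073937529532706634563505177075442572692438389763, 7745859257847097325298826471798778698209400663476307605913542620081960260609, 21714551722007261256215112532753538770082413412079427429886850523098540744706, 565419532539012551243671821305585604713265817453892979003510935357247995907,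 85319885368164018735012681681180033027]
def runR5 : List ℕ := runChunks compGM progR5 [BR5] [BR5]

theorem chkBR5 : chkP 32 BR5 = true := by decide +kernel
theorem condR5 : condsR5.all (condChk vsGM BR5) = true := by decide +kernel
theorem scanR5 : scanChk 18 hiP 275 runR5 = true := by decide +kernel
theorem hccR5 : compC extraR5 = ccR5 := by decide +kernel
theorem cntR5 : cntChk (predD ccR5) 18 runR4 275 = true := by decide +kernel

theorem resR5 : OrbRes vsGM BR5 condsR5 275 runR5 :=
  orbit_S32 okGM eqGM chkBR5 condR5 scanR5 resR4.2.2 (parent := condsR4) (extra := extraR5) rfl hccR5 cntR5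

theorem orbR5 : {x : GolayPt → ℤ | x ∈ leechLattice ∧ sqNorm x = 32 ∧ PrC condsR5 x}.ncard = 275 ∧
    ∀ x : GolayPt → ℤ, x ∈ leechLattice → sqNorm x = 32 → PrC condsR5 x →
      ∃ g : ↥Co0, FixL (bsOf vsGM) g ∧ ((g • liftP BR5 : leechLattice) : GolayPt → ℤ) = x :=
  ⟨resR5.1, resR5.2.1⟩

end CfsgLib.Leech.Orb
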