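/-
Orbit data.
-/
import Cfsg.Agent.Lib.Leech.Orb.R5

set_option autoImplicit false
set_option maxRecDepth 100000
set_option maxHeartbeats 0

namespace CfsgLib.Leech.Orb

open Cfsg CfsgLib.Golay
open scoped Pointwise

def BR6 : ℕ := 5663681320910785142952184957493475323479186
def condsR6 : List (ℕ × List (ℕ × ℤ) × ℤ) := [(U0, spU0, 24), (V0, spV0, 16), (X0, spX0, 8)]
def extraR6 : List (ℕ × List (ℕ × ℤ) × ℤ) := [(X0, spX0, 8)]
def ccR6 : List (List (ℕ × ℕ) × List (ℕ × ℕ) × ℕ × ℕ) := [([(0, 4)], [(2, 4)], 0, 8)]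
def progR6 : List ℕ := [60074096077618844473536668884167133144466907571473149000052097449650565393, 565399256975353302282654807623471433778444225507188581954913877738196566052, 7830666192993934837781789455437578281684267984648840599205473697318639239938, 5076792404281601392968582049824]
def runR6 : List ℕ := runChunks compGU progR6 [BR6] [BR6]

theorem chkBR6 : chkP 32 BR6 = true := by decide +kernel
theorem condR6 : condsR6.all (condChk vsGU BR6) = true := by decide +kernel
theorem scanR6 : scanChk 18 hiP 112 runR6 = true := by decide +kernel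
theorem hccR6 : compC extraR6 = ccR6 := by decide +kernel
theorem cntR6 : cntChk (predD ccR6) 18 runR5 112 = true := by decide +kernel

theorem resR6 : OrbRes vsGU BR6 condsR6 112 runR6 :=
  orbit_S32 okGU eqGU chkBR6 condR6 scanR6 resR5.2.2 (parent := condsR5) (extra := extraR6) rfl hccR6 cntR6

theorem orbR6 : {x : GolayPt → ℤ | x ∈ leechLattice ∧ sqNorm x = 32 ∧ PrC condsR6 x}.ncard = 112 ∧
    ∀ x : GolayPt → ℤ, x ∈ leechLattice → sqNorm x = 32 → PrC condsR6 x →
      ∃ g : ↥Co0, FixL (bsOf vsGU) g ∧ ((g • liftP BR6 : leechLattice) : GolayPt → ℤ) = x :=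
  ⟨resR6.1, resR6.2.1⟩

end CfsgLib.Leech.Orb
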