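/-
Orbit data.
-/
import Cfsg.Agent.Lib.Leech.Orb.R5

set_option autoImplicit false
set_option maxRecDepth 100000
set_option maxHeartbeats 0

namespace CfsgLib.Leech.Orb

open Cfsg CfsgLib.Golay
open scoped Pointwise

def BR7 : ℕ := 5663681320261745559755103053371012447011860
def condsR7 : List (ℕ × List (ℕ × ℤ) × ℤ) := [(U0, spU0, 24), (V0, spV0, 16), (X0, spX0, 16)]
def extraR7 : List (ℕ × List (ℕ × ℤ) × ℤ) := [(X0, spX0, 16)]
def ccR7 : List (List (ℕ × ℕ) × List (ℕ × ℕ) × ℕ × ℕ) := [([(0, 4)], [(2, 4)], 0, 16)]
def progR7 : List ℕ := [113106682271188182836022053311123376818196863137662667175345344629156348193, 1809486060580483665393080361863751620760581944368781299893266102525970547012, 15831405222544845230972945485164497460576765838097116545507182841740733256016, 1359147108372117608904380092890405945953670137657354824087401150904298128384, 7068331988887377720181696251656076439089019044691536703290593441461900032]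
def runR7 : List ℕ := runChunks compGU progR7 [BR7] [BR7]

theorem chkBR7 : chkP 32 BR7 = true := by decide +kernel
theorem condR7 : condsR7.all (condChk vsGU BR7) = true := by decide +kernel
theorem scanR7 : scanChk 18 hiP 162 runR7 = true := by decide +kernel
theorem hccR7 : compC extraR7 = ccR7 := by decide +kernel
theorem cntR7 : cntChk (predD ccR7) 18 runR5 162 = true := by decide +kernel

theorem resR7 : OrbRes vsGU BR7 condsR7 162 runR7 :=
  orbit_S32 okGU eqGU chkBR7 condR7 scanR7 resR5.2.2 (parent := condsR5) (extra := extraR7) rfl hccR7 cntR7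

theorem orbR7 : {x : GolayPt → ℤ | x ∈ leechLattice ∧ sqNorm x = 32 ∧ PrC condsR7 x}.ncard = 162 ∧
    ∀ x : GolayPt → ℤ, x ∈ leechLattice → sqNorm x = 32 → PrC condsR7 x →
      ∃ g : ↥Co0, FixL (bsOf vsGU) g ∧ ((g • liftP BR7 : leechLattice) : GolayPt → ℤ) = x :=
  ⟨resR7.1, resR7.2.1⟩

end CfsgLib.Leech.Orb
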