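/-
Values of linear forms on the orbit lists.
-/
import Cfsg.Agent.Lib.Leech.Orb.R5
import Cfsg.Agent.Lib.Leech.Orb.R8
import Cfsg.Agent.Lib.Leech.Orb.R9
import Cfsg.Agent.Lib.Leech.OrbGlue

set_option autoImplicit false
set_option maxRecDepth 100000
set_option maxHeartbeats 0

namespace CfsgLib.Leech.Orb

open Cfsg CfsgLib.Golay CfsgLib.Leech

theorem spX0_lt : ∀ p ∈ spX0, p.1 < 24 := by decide +kernel
theorem spX1_lt : ∀ p ∈ spX1, p.1 < 24 := by decide +kernel
theorem spMT0_lt : ∀ p ∈ spMT0, p.1 < 24 := by decide +kernel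

theorem valsR5 : runR5.all (valChk spX0 [8, 16, 32]) = true := by decide +kernel
theorem valsR9 : runR9.all (valChk spX1 [8, 16, 32]) = true := by decide +kernel
theorem valsR8 : runR8.all (valChk spMT0 [-8, 16, 0, 8, 32]) = true := by decide +kernel

end CfsgLib.Leech.Orb
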